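import Cfsg.Agent.Lib.Spor.J3c.Data
import Cfsg.Agent.Lib.Spor.J3c.Top

set_option autoImplicit false
set_option maxRecDepth 100000
set_option Elab.async false
set_option exponentiation.threshold 100000

namespace Cfsg.Agent.Spor.J3c
open Cfsg.Agent.PG Cfsg.Agent.Spor

theorem md3_0 : chkR P L 0 18 (modClaims J3p.cl3_l mdw3) = true := by decide +kernel

theorem md2_0 : chkR P L 0 18 (modClaims J3p.cl2_l mdw2) = true := by decide +kernel

theorem md1_0 : chkR P L 0 18 (modClaims J3p.cl1_l mdw1) = true := by decide +kernel

theorem md0_0 : chkR P L 0 18 (modClaims J3p.cl0_l mdw0) = true := by decide +kernel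

theorem nz_0 : chkR P L 0 18 (nzClaims 0 4 nz_r) = true := by decide +kernel

theorem cm_0 : chkR P L 0 18 (cmLet [gw 4] 0 5) = true := by decide +kernel

theorem g1_0 : chkR P L 0 18 (genClaims g1_g) = true := by decide +kernel

theorem g2_0 : chkR P L 0 18 (genClaims g2_g) = true := by decide +kernel

theorem sm_0 : chkR P L 0 18 ([(powP [gw 4] 3, [])]) = true := by decide +kernel

theorem ng_0 : chkN P L (ng_l) = true := by decide +kernel

end Cfsg.Agent.Spor.J3c
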