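import Cfsg.Agent.Lib.Spor.J3c.Data
import Cfsg.Agent.Lib.Spor.J3c.Top
import Cfsg.Agent.Lib.Spor.J3c.C0

set_option autoImplicit false
set_option maxRecDepth 100000
set_option Elab.async false
set_option exponentiation.threshold 100000

namespace Cfsg.Agent.Spor.J3c
open Cfsg.Agent.PG Cfsg.Agent.Spor

noncomputable abbrev γ : ℕ → GL (Fin P.n) (ZMod P.p) := gam P L

theorem γ_of_le {j : ℕ} (h : L.length ≤ j) : γ j = 1 := gam_of_le P h

theorem md3 : ∀ c ∈ modClaims J3p.cl3_l mdw3, HoldsG γ c :=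
  (chkM_spec good md3_0)

theorem md2 : ∀ c ∈ modClaims J3p.cl2_l mdw2, HoldsG γ c :=
  (chkM_spec good md2_0)

theorem md1 : ∀ c ∈ modClaims J3p.cl1_l mdw1, HoldsG γ c :=
  (chkM_spec good md1_0)

theorem md0 : ∀ c ∈ modClaims J3p.cl0_l mdw0, HoldsG γ c :=
  (chkM_spec good md0_0)

theorem nz : ∀ c ∈ nzClaims 0 4 nz_r, HoldsG γ c :=
  (chkM_spec good nz_0)

theorem cm : ∀ c ∈ cmLet [gw 4] 0 5, HoldsG γ c :=
  (chkM_spec good cm_0)

theorem g1 : ∀ c ∈ genClaims g1_g, HoldsG γ c :=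
  (chkM_spec good g1_0)

theorem g2 : ∀ c ∈ genClaims g2_g, HoldsG γ c :=
  (chkM_spec good g2_0)

theorem sm : ∀ c ∈ [(powP [gw 4] 3, [])], HoldsG γ c :=
  (chkM_spec good sm_0)

theorem ng : ∀ c ∈ (ng_l).map Prod.fst, ¬ HoldsG γ c :=
  (chkN_spec good ng_0)

end Cfsg.Agent.Spor.J3c
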