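import Cfsg.Agent.Lib.Spor.J3c.Vec
import Cfsg.Agent.Lib.Spor.J3c.Main
import Cfsg.Agent.Lib.Spor.J3p.Lift
import Cfsg.Agent.Lib.Spor.Pack

set_option autoImplicit false
set_option maxRecDepth 100000

namespace Cfsg.Agent.Spor

open Cfsg.Agent.PG Cfsg.Spor Matrix Subgroup

section General

variable {D S : Type*} [Group D] [Group S]

theorem center_eq_ker [IsSimpleGroup S] (hS : ∃ a b : S, a * b ≠ b * a) {ψ : D →* S}
    (hs : Function.Surjective ψ) (hk : ψ.ker ≤ center D) : center D = ψ.ker := by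
  refine le_antisymm (fun x hx => ?_) hk
  rcases IsSimpleGroup.eq_bot_or_eq_top_of_normal (center S) inferInstance with h | h
  · rw [MonoidHom.mem_ker, ← mem_bot, ← h, mem_center_iff]
    intro s
    obtain ⟨y, rfl⟩ := hs s
    rw [← map_mul, ← map_mul, mem_center_iff.1 hx]
  · obtain ⟨a, b, hab⟩ := hS
    exact absurd (mem_center_iff.1 (h ▸ mem_top b) a) hab

theorem eq_one_of_ker_le [IsSimpleGroup S] (hS : ∃ a b : S, a * b ≠ b * a) {ψ : D →* S}
    (hs : Function.Surjective ψ) {M : Type*} [CommGroup M] {f : D →* M} (hf : ψ.ker ≤ f.ker)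
    (x : D) : f x = 1 := by
  by_contra h
  obtain ⟨a, b, hab⟩ := hS
  apply hab
  apply inj_of_simple (φ := ψ.liftOfSurjective hs ⟨f, hf⟩) ⟨ψ x, by simpa using h⟩
  rw [map_mul, map_mul, mul_comm]

theorem ncard_lines {F V : Type*} [Field F] [AddCommGroup V] [Module F V] {T : Set V}
    (h0 : (0 : V) ∉ T) (h : ∀ v ∈ T, ∀ c : F, c ≠ 0 → c • v ∈ T) :
    T.ncard = {L : Submodule F V | ∃ v ∈ T, L = F ∙ v}.ncard * Nat.card Fˣ := by
  rw [← Nat.card_coe_set_eq, ← Nat.card_coe_set_eq, ← Nat.card_prod]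
  symm
  refine Nat.card_eq_of_bijective (fun p => ⟨(p.2 : F) • p.1.2.choose,
    h _ p.1.2.choose_spec.1 _ p.2.ne_zero⟩) ⟨?_, ?_⟩
  · rintro ⟨L, c⟩ ⟨L', c'⟩ e
    have e1 : (c : F) • L.2.choose = (c' : F) • L'.2.choose := congrArg Subtype.val e
    obtain rfl : L = L' := Subtype.ext (by
      rw [L.2.choose_spec.2, L'.2.choose_spec.2, ← Submodule.span_singleton_smul_eq c.isUnit, e1,
        Submodule.span_singleton_smul_eq c'.isUnit])
    have hv : L.2.choose ≠ 0 := fun e => h0 (e ▸ L.2.choose_spec.1)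
    rw [show c = c' from Units.ext (smul_left_injective F hv e1)]
  · rintro ⟨v, hv⟩
    have hL : (F ∙ v) ∈ {L : Submodule F V | ∃ v ∈ T, L = F ∙ v} := ⟨v, hv, rfl⟩
    obtain ⟨c, hc⟩ := Submodule.mem_span_singleton.1
      (hL.choose_spec.2 ▸ Submodule.mem_span_singleton_self v)
    refine ⟨(⟨_, hL⟩, Units.mk0 c ?_), Subtype.ext hc⟩
    rintro rfl
    exact h0 (by rw [← zero_smul F hL.choose, hc]; exact hv)

end General

namespace J3c

/-- the regular representation of `F4` -/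
def psi : F4 →+* Matrix (Fin 2) (Fin 2) (ZMod 2) where
  toFun a := match a with
    | .z => !![0, 0; 0, 0] | .o => !![1, 0; 0, 1] | .w => !![0, 1; 1, 1] | .v => !![1, 1; 1, 0]
  map_one' := by decide
  map_zero' := by decide
  map_mul' := by decide
  map_add' := by decide

/-- numbering -/
def e9 : F9 ≃ Fin 9 := (finProdFinEquiv : Fin 3 × Fin 3 ≃ Fin (3 * 3))

/-- numbering -/
def e18 : F9 × Fin 2 ≃ Fin 18 := (e9.prodCongr (Equiv.refl _)).trans finProdFinEquiv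

/-- restriction of scalars -/
noncomputable def E : Matrix F9 F9 F4 →+* Matrix (Fin 18) (Fin 18) (ZMod 2) :=
  ((compRingEquiv F9 (Fin 2) (ZMod 2)).trans
    (reindexAlgEquiv (ZMod 2) (ZMod 2) e18).toRingEquiv).toRingHom.comp psi.mapMatrix

theorem E_inj : Function.Injective E :=
  fun _ _ h => Matrix.map_injective psi.injective (((compRingEquiv F9 (Fin 2) (ZMod 2)).trans
    (reindexAlgEquiv (ZMod 2) (ZMod 2) e18).toRingEquiv).injective h)

/-- restriction of scalars -/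
noncomputable def Eu : GL F9 F4 →* GL (Fin 18) (ZMod 2) := Units.map E.toMonoidHom

theorem Eu_inj : Function.Injective Eu := Units.map_injective E_inj

/-- the matrix of a letter -/
noncomputable def mt (j : ℕ) : Matrix (Fin 18) (Fin 18) (ZMod 2) := mat P (nthD ([], []) L j).1

theorem E_gen : ∀ j < 43, E (gen j) = mt (5 + j) := by decide +kernel

/-- the central element -/
def zeta : GL F9 F4 := GeneralLinearGroup.scalar F9 (Units.mk0 F4.w (by decide))

theorem E_zeta : Eu zeta = γ 4 := by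
  refine Units.ext (Eq.trans ?_ (gam_val good 4).symm)
  have : E (scalar F9 F4.w) = mt 4 := by decide +kernel
  exact this

theorem mem_gens {M : Matrix F9 F9 F4} : M ∈ j3Gens F4 F4.w ↔ ∃ j < 43, gen j = M := by
  rw [mem_genL, List.mem_iff_getElem]
  have e : (genL F4 F4.w).length = 43 := rfl
  refine exists_congr fun j => ⟨fun ⟨h, h'⟩ => ⟨e ▸ h, ?_⟩, fun ⟨h, h'⟩ => ⟨e ▸ h, ?_⟩⟩
  · rw [gen, nthD_eq, List.getD_eq_getElem _ _ h, h']
  · rw [← h', gen, nthD_eq, List.getD_eq_getElem]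

theorem exists_unit {j : ℕ} (hj : j < 43) : ∃ g ∈ threeJ3 F4 F4.w, g.1 = gen j := by
  have h := congrArg transpose (unitary j hj)
  rw [transpose_mul, transpose_transpose, transpose_one] at h
  exact ⟨⟨gen j, _, mul_eq_one_comm.1 h, h⟩, subset_closure (mem_gens.2 ⟨j, hj, rfl⟩), rfl⟩

theorem Eu_eq {j : ℕ} (hj : j < 43) {g : GL F9 F4} (h : g.1 = gen j) : Eu g = γ (5 + j) :=
  Units.ext (Eq.trans (congrArg E h) ((E_gen j hj).trans (gam_val good _).symm))

theorem map_Eu : (threeJ3 F4 F4.w).map Eu = KW γ 5 48 := by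
  refine le_antisymm (map_le_iff_le_comap.2 ((closure_le _).2 fun g hg => ?_))
    (KW_le fun j h1 h2 => ?_)
  · obtain ⟨j, hj, e⟩ := mem_gens.1 hg
    show Eu g ∈ KW γ 5 48
    rw [Eu_eq hj e.symm]
    exact mem_KW _ (by omega) (by omega)
  · obtain ⟨g, h3, h4⟩ := exists_unit (j := j - 5) (by omega)
    exact ⟨g, h3, by rw [Eu_eq (by omega) h4, show 5 + (j - 5) = j by omega]⟩

theorem ext {Γ : Type} [Group Γ] [Finite Γ] {γ : ℕ → Γ}
    (md3 : ∀ c ∈ modClaims J3p.cl3_l mdw3, HoldsG γ c)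
    (md2 : ∀ c ∈ modClaims J3p.cl2_l mdw2, HoldsG γ c)
    (md1 : ∀ c ∈ modClaims J3p.cl1_l mdw1, HoldsG γ c)
    (md0 : ∀ c ∈ modClaims J3p.cl0_l mdw0, HoldsG γ c)
    (nz : ∀ c ∈ nzClaims 0 4 nz_r, HoldsG γ c) (cm : ∀ c ∈ cmLet [gw 4] 0 5, HoldsG γ c)
    (g1 : ∀ c ∈ genClaims g1_g, HoldsG γ c) (g2 : ∀ c ∈ genClaims g2_g, HoldsG γ c)
    (ng : ∀ c ∈ ng_l.map Prod.fst, ¬ HoldsG γ c) :
    ∃ ψ : KW γ 5 48 →* K J3p.A 0, Function.Surjective ψ ∧
      ψ.ker = (zpowers (γ 4)).subgroupOf _ ∧ γ 4 ∈ KW γ 5 48 := by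
  have hN := nz_of_claims nzok nz
  obtain ⟨φ, hφ⟩ := J3p.liftAll (γ := barG γ (KW γ 4 5) 0 4) (fun j hj => barG_of_le γ _ hj)
    (holds_mod hN mdok3 md3) (holds_mod hN mdok2 md2) (holds_mod hN mdok1 md1)
    (holds_mod hN mdok0 md0)
  have := J3p.simple0
  have e1 : KW γ 4 5 = zpowers (γ 4) := le_antisymm (KW_le fun j h1 h2 => by
    rw [show j = 4 by omega]; exact mem_zpowers _)
    (zpowers_le_of_mem (mem_KW γ le_rfl (by norm_num)))
  have a1 := mem_of_genRun (Q := KW γ 4 5 ⊔ KW γ 0 4) (a := 0) (b := 5) (c := 5) (d := 48)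
    (fun j h1 h2 => if h : j < 4 then mem_sup_right (mem_KW γ h1 h)
      else mem_sup_left (mem_KW γ (by omega) h2)) (by decide +kernel) g1
  have a2 := mem_of_genRun (Q := KW γ 5 48) (a := 5) (b := 48) (c := 0) (d := 5)
    (fun j h1 h2 => mem_KW γ h1 h2) (by decide +kernel) g2
  have e2 : KW γ 4 5 ⊔ KW γ 0 4 = KW γ 5 48 := le_antisymm
    (sup_le (KW_le fun j h1 h2 => a2 j (by omega) h2) (KW_le fun j h1 h2 => a2 j h1 (by omega)))
    (KW_le a1)
  have := ext_of_lift hN hφ (inj_of_simple ⟨⟨_, gp_mem_K _ le_rfl⟩, by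
    rw [hφ 0 le_rfl]
    refine barG_ne_one hN le_rfl (by norm_num) fun hm => ?_
    have h1 := comm_KW (by norm_num) cm _ (mem_KW γ (j := 1) (by norm_num) (by norm_num))
    have h2 := ng ([gw 0, gw 1], [gw 1, gw 0]) (by decide +kernel)
    simp only [HoldsG, ppG_cons, ppG_nil, mul_one, spG_gw γ (show 0 < 128 by norm_num),
      spG_gw γ (show 1 < 128 by norm_num), spG_gw γ (show 4 < 128 by norm_num)] at h1 h2
    obtain ⟨k, hk⟩ := e1 ▸ hm
    exact h2 (by rw [← hk]; exact (Commute.zpow_right h1 k).symm.eq)⟩)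
  rw [e2, e1] at this
  obtain ⟨ψ, h1, h2⟩ := this
  exact ⟨ψ, h1, h2, a2 4 (by norm_num) (by norm_num)⟩

theorem struct : ∃ ψ : threeJ3 F4 F4.w →* K J3p.A 0, Function.Surjective ψ ∧
    ψ.ker = (zpowers zeta).subgroupOf _ ∧ zeta ∈ threeJ3 F4 F4.w := by
  have : Finite (GL (Fin P.n) (ZMod P.p)) := inferInstanceAs (Finite (GL (Fin 18) (ZMod 2)))
  obtain ⟨ψ, h1, h2, h3⟩ := ext md3 md2 md1 md0 nz cm g1 g2 ng
  let e := (equivMapOfInjective _ _ Eu_inj).trans (MulEquiv.subgroupCongr map_Eu)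
  refine ⟨ψ.comp e.toMonoidHom, h1.comp e.surjective, ?_, ?_⟩
  · ext x
    rw [← MonoidHom.comap_ker, h2, mem_comap, mem_subgroupOf, mem_subgroupOf, ← E_zeta,
      ← MonoidHom.map_zpowers, ← mem_map_iff_mem Eu_inj]
    rfl
  · rwa [← map_Eu, ← E_zeta, mem_map_iff_mem Eu_inj] at h3

theorem noncomm : ∃ a b : K J3p.A 0, a * b ≠ b * a :=
  haveI := finite_K J3p.hA 0
  haveI := J3p.simple0
  not_comm_of_simple (by rw [J3p.card0]; norm_num)

theorem cover4 : Nat.card (center (threeJ3 F4 F4.w)) = 3 ∧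
    (IsSimpleGroup (J3 F4 F4.w) ∧ Nat.card (J3 F4 F4.w) = 50232960) ∧
    ∀ g ∈ threeJ3 F4 F4.w, GeneralLinearGroup.det g = 1 := by
  obtain ⟨ψ, h1, h2, h3⟩ := struct
  have := J3p.simple0
  have hc := center_eq_ker noncomm h1 (by
    rw [h2]
    intro x hx
    refine mem_center_iff.2 fun y => Subtype.ext ?_
    obtain ⟨k, hk⟩ := mem_subgroupOf.1 hx
    have : Commute zeta y := GeneralLinearGroup.scalar_commute _ _
    rw [coe_mul, coe_mul, ← hk]
    exact (this.zpow_left k).symm.eq)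
  have : Fact (Nat.Prime 3) := ⟨Nat.prime_three⟩
  refine ⟨?_, simple_card_congr ((QuotientGroup.quotientMulEquivOfEq hc).trans
    (QuotientGroup.quotientKerEquivOfSurjective ψ h1)).symm ⟨J3p.simple0, J3p.card0⟩, fun g hg =>
    eq_one_of_ker_le noncomm h1 (f := GeneralLinearGroup.det.comp (threeJ3 F4 F4.w).subtype) ?_
      ⟨g, hg⟩⟩
  · rw [hc, h2, Nat.card_congr (subgroupOfEquivOfLe (zpowers_le_of_mem h3)).toEquiv,
      Nat.card_zpowers, zeta, orderOf_scalar]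
    exact orderOf_eq_prime (by decide) (by decide)
  · rw [h2, ← MonoidHom.comap_ker]
    refine comap_mono (zpowers_le_of_mem ?_)
    rw [MonoidHom.mem_ker, zeta, GeneralLinearGroup.det_scalar]
    decide

theorem map_le {F F' : Type} [Field F] [Field F'] (f : F →+* F') (ω : F) :
    (threeJ3 F ω).map (GeneralLinearGroup.map f) ≤ threeJ3 F' (f ω) := by
  refine map_le_iff_le_comap.2 ((closure_le _).2 fun g hg => subset_closure ?_)
  show (g : Matrix F9 F9 F).map f ∈ j3Gens F' (f ω)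
  rcases hg with (((⟨Z, h⟩ | ⟨Z, h⟩) | ⟨Z, h⟩) | ⟨Z, h0, h⟩) | ⟨Z, h0, h⟩
  · refine Or.inl (Or.inl (Or.inl (Or.inl ⟨Z, ?_⟩)))
    rw [← h, j3A, j3A, diagonal_map (map_zero f)]; simp [omegaPow]
  · refine Or.inl (Or.inl (Or.inl (Or.inr ⟨Z, ?_⟩)))
    rw [← h, j3E, j3E, diagonal_map (map_zero f)]; simp [omegaPow]
  · refine Or.inl (Or.inl (Or.inr ⟨Z, ?_⟩))
    rw [← h]; ext r s; simp [j3D, j3Lam, apply_ite f]
  · refine Or.inl (Or.inr ⟨Z, h0, ?_⟩)
    rw [h]; ext r s; simp [j3B, apply_ite f]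
  · refine Or.inr ⟨Z, h0, ?_⟩
    rw [h]; ext r s; simp [j3C, apply_ite f]

theorem map_eq {F : Type} [Field F] (f : F4 ≃+* F) :
    (threeJ3 F4 F4.w).map (GeneralLinearGroup.map f.toRingHom) = threeJ3 F (f F4.w) := by
  refine le_antisymm (map_le _ _) fun g hg =>
    ⟨GeneralLinearGroup.map f.symm.toRingHom g, ?_, ?_⟩
  · have := map_le f.symm.toRingHom _ ⟨g, hg, rfl⟩
    simpa using this
  · ext r s; simp [GeneralLinearGroup.map_apply]

theorem map_inj {F : Type} [Field F] (f : F4 →+* F) :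
    Function.Injective (GeneralLinearGroup.map (n := F9) f) :=
  Units.map_injective (Matrix.map_injective f.injective)

theorem iso {F : Type} [Field F] (f : F4 ≃+* F) :
    Nonempty (threeJ3 F4 F4.w ≃* threeJ3 F (f F4.w)) :=
  ⟨(equivMapOfInjective _ _ (map_inj _)).trans (MulEquiv.subgroupCongr (map_eq f))⟩

end J3c

end Cfsg.Agent.Spor
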