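import Cfsg.Agent.Lib.Spor.J3c.Link

set_option autoImplicit false
set_option maxRecDepth 100000

namespace Cfsg.Agent.Spor.J3c

open Cfsg.Agent.PG Cfsg.Spor Matrix Subgroup

/-- the natural representation -/
def rho : threeJ3 F4 F4.w →* Matrix F9 F9 F4 := (Units.coeHom _).comp (threeJ3 F4 F4.w).subtype

theorem actV {j : ℕ} (hj : j < 43) {g : threeJ3 F4 F4.w} (h : rho g = gen j) :
    Acts (fun i => (show Vc rho from vecAt W i)) (bset (ivl 0 (2 ^ 18))) g (gp V j) :=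
  acts_vec enum9 hV (by omega) (K_le_stabB hV (by rw [lenV]; norm_num) invV
    (gp_mem_K V (Nat.zero_le j))) (h ▸ allL_spec linV j (by rw [List.mem_range'_1]; omega))

theorem act1 : ∀ σ ∈ K V 0, ∃ g : threeJ3 F4 F4.w,
    Acts (fun i => (show Vc rho from vecAt W i)) (bset (ivl 0 (2 ^ 18))) g σ :=
  acts_of_K' fun j _ h2 => by
    obtain ⟨g, h3, h4⟩ := exists_unit (lenV ▸ h2)
    exact ⟨⟨g, h3⟩, actV (lenV ▸ h2) h4⟩

theorem act2 : ∀ g : threeJ3 F4 F4.w, ∃ σ ∈ K V 0,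
    Acts (fun i => (show Vc rho from vecAt W i)) (bset (ivl 0 (2 ^ 18))) g σ :=
  acts_of_closure (closure_closure_coe_preimage) fun g hg => by
    obtain ⟨j, hj, e⟩ := mem_gens.1 hg
    exact ⟨_, gp_mem_K V (Nat.zero_le j), actV hj e.symm⟩

theorem vec_inj : Set.InjOn (vecAt W) (bset (ivl 0 (2 ^ 18))) := by
  intro i hi j hj e
  rw [mem_bset_ivl] at hi hj
  apply Nat.eq_of_testBit_eq
  intro k
  by_cases hk : k < 18
  · obtain ⟨z, hz⟩ := (by decide : ∀ k < 18, ∃ z : F9, k = 6 * z.1.val + 2 * z.2.val ∨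
      k = 6 * z.1.val + 2 * z.2.val + 1) k hk
    have := F4.mk_inj (congrFun e z)
    simp only [W, testBit_plane, show i < 2 ^ 18 by omega, show j < 2 ^ 18 by omega, decide_true,
      Bool.true_and] at this
    rcases hz with rfl | rfl
    · exact this.1
    · exact this.2
  · have : 2 ^ 18 ≤ 2 ^ k := Nat.pow_le_pow_right (by norm_num) (by omega)
    rw [Nat.testBit_lt_two_pow (by omega), Nat.testBit_lt_two_pow (by omega)]

theorem vec_surj (v : F9 → F4) : ∃ i ∈ bset (ivl 0 (2 ^ 18)), vecAt W i = v := by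
  have : vecAt W '' bset (ivl 0 (2 ^ 18)) = Set.univ := by
    refine Set.eq_of_subset_of_ncard_le (Set.subset_univ _) ?_
    rw [vec_inj.ncard_image, ncard_bset_ivl, Set.ncard_univ, Nat.card_eq_fintype_card,
      Fintype.card_fun]
    decide
  exact this.ge (Set.mem_univ v)

theorem mem_orb {b : ℕ} (hb : b ∈ bset (ivl 0 (2 ^ 18))) :
    {v | ∃ g ∈ threeJ3 F4 F4.w, v = (g : Matrix F9 F9 F4) *ᵥ vecAt W b} =
      vecAt W '' {i | ∃ σ ∈ K V 0, σ b = i} := by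
  ext v
  constructor
  · rintro ⟨g, hg, rfl⟩
    obtain ⟨σ, h1, h2⟩ := act2 ⟨g, hg⟩
    exact ⟨_, ⟨σ, h1, rfl⟩, (h2.2 b hb).symm⟩
  · rintro ⟨_, ⟨σ, h1, rfl⟩, rfl⟩
    obtain ⟨g, h2⟩ := act1 σ h1
    exact ⟨g, g.2, (h2.2 b hb).symm⟩

theorem card_orb : {v | ∃ g ∈ threeJ3 F4 F4.w,
    v = (g : Matrix F9 F9 F4) *ᵥ (Pi.single 0 1 : F9 → F4)}.ncard = 69768 := by
  have hb : 1 ∈ bset (ivl 0 (2 ^ 18)) := mem_bset_ivl.2 (by norm_num)
  rw [show (Pi.single 0 1 : F9 → F4) = vecAt W 1 by decide +kernel, mem_orb hb,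
    (vec_inj.mono ?_).ncard_image, orbCardB_spec hV orb1]
  rintro _ ⟨σ, h1, rfl⟩
  exact ((act1 σ h1).choose_spec.1 _).2 hb

theorem iso_orb {v : F9 → F4} (h0 : v ≠ 0) (h : ∑ z, v z ^ 3 = 0) :
    ∃ g ∈ threeJ3 F4 F4.w, v = (g : Matrix F9 F9 F4) *ᵥ vecAt W 5 := by
  obtain ⟨i, hi, rfl⟩ := vec_surj v
  refine (mem_orb (mem_bset_ivl.2 (by norm_num))).ge ⟨i, ?_, rfl⟩
  by_contra hc
  have h1 : (ivl 1 (2 ^ 18)).testBit i = true := by
    rw [mem_bset_ivl] at hi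
    refine (testBit_ivl _ _ _).2 ⟨Nat.pos_of_ne_zero ?_, by omega⟩
    rintro rfl
    exact h0 (by decide +kernel)
  have h2 : (korb V 0 5 20).testBit i = false := by
    rw [← Bool.not_eq_true]
    intro h2
    obtain ⟨σ, h3, j, h4, h5⟩ := reach_orb hV (kgens_mem (by rw [lenV]; norm_num) 0) _ _ i h2
    exact hc ⟨σ, h3, by rw [← h5, (testBit_shl_one _ _).1 h4]⟩
  apply nzB_spec orb2 (i := i)
  · show (ivl 1 (2 ^ 18) ^^^ (ivl 1 (2 ^ 18) &&& korb V 0 5 20)).testBit i = true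
    rw [Nat.testBit_xor, Nat.testBit_and, h1, h2]; rfl
  · ext
    rw [vecAt, BP.ev_sumL, enum9.sum]
    simp only [BP.ev_mul, pow_three] at h ⊢
    exact h

variable {F : Type} [Field F] (f : F4 ≃+* F)

theorem map_mulVec' (g : GL F9 F4) (v : F9 → F4) :
    (GeneralLinearGroup.map f.toRingHom g : Matrix F9 F9 F) *ᵥ (f ∘ v) =
      f ∘ ((g : Matrix F9 F9 F4) *ᵥ v) :=
  funext fun i => (RingHom.map_mulVec f.toRingHom _ v i).symm

theorem orb_map (v : F9 → F4) :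
    {u | ∃ g ∈ threeJ3 F (f F4.w), u = (g : Matrix F9 F9 F) *ᵥ (f ∘ v)} =
      (fun u => f ∘ u) '' {u | ∃ g ∈ threeJ3 F4 F4.w, u = (g : Matrix F9 F9 F4) *ᵥ v} := by
  rw [← map_eq f]
  ext u
  constructor
  · rintro ⟨_, ⟨g, hg, rfl⟩, rfl⟩
    exact ⟨_, ⟨g, hg, rfl⟩, (map_mulVec' f g v).symm⟩
  · rintro ⟨_, ⟨g, hg, rfl⟩, rfl⟩
    exact ⟨_, ⟨g, hg, rfl⟩, (map_mulVec' f g v).symm⟩

theorem orb_smul {v u : F9 → F4} (h : ∃ g ∈ threeJ3 F4 F4.w, u = (g : Matrix F9 F9 F4) *ᵥ v)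
    {c : F4} (hc : c ≠ 0) : ∃ g ∈ threeJ3 F4 F4.w, c • u = (g : Matrix F9 F9 F4) *ᵥ v := by
  have h1 : ∀ u : F9 → F4, (∃ g ∈ threeJ3 F4 F4.w, u = (g : Matrix F9 F9 F4) *ᵥ v) →
      ∃ g ∈ threeJ3 F4 F4.w, F4.w • u = (g : Matrix F9 F9 F4) *ᵥ v := by
    rintro _ ⟨g, hg, rfl⟩
    refine ⟨zeta * g, mul_mem struct.choose_spec.2.2 hg, ?_⟩
    rw [Units.val_mul, ← mulVec_mulVec]
    ext i
    simp [zeta, mulVec_diagonal]
  cases c
  · exact absurd rfl hc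
  · exact (one_smul F4 u).symm ▸ h
  · exact h1 _ h
  · have := h1 _ (h1 _ h)
    rwa [smul_smul] at this

end Cfsg.Agent.Spor.J3c
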